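import Cfsg.Agent.Lib.Helper35.J1P1045.PChk0

namespace Cfsg.Agent.Lib.Helper35.J1P1045

open Cfsg.Agent.Lib.Helper35

theorem hsub : allBelow (fixAll sl) 1 = true := by decide +kernel

noncomputable def permData : PermData PresJ1P.cc.C PresJ1P.cc.inv PresJ1P.R S 1044 where
  pt := pt
  hinvC := PresJ1P.hinvC
  hinv2 := PresJ1P.hinv2
  hinvE := PresJ1P.hinvE
  hchk := by
    intro c hc
    have hc' : c < 3 := hc
    interval_cases c
    exacts [c0u0, c1u0, c2u0]
  hrel := fix_of_leaves' rl 1045 ru0
  hsub := fun b hb => fix_of_leaves sl 1 hsub b hb 0 (by decide)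
  hRC := PresJ1P.hRC
  hSC := by decide +kernel
  tp := tp
  cK := 4
  htree := tu0


noncomputable def orbData : OrbData permData where
  sl := sl
  hsl := rfl
  ot := ot
  db := 4
  rep := rep
  hchk := allBelow_of_forall _ _ ou0

theorem ocnt0 : countBelow (fun j => Nat.beq (orbData.lab j) 0) 1045 = 1 := l0n0
theorem orep0 : orbData.lab (orbData.rep 0) = 0 := by decide +kernel
theorem ocnt1 : countBelow (fun j => Nat.beq (orbData.lab j) 1) 1045 = 168 := l1n0
theorem orep1 : orbData.lab (orbData.rep 1) = 1 := by decide +kernel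
theorem ocnt2 : countBelow (fun j => Nat.beq (orbData.lab j) 2) 1045 = 168 := l2n0
theorem orep2 : orbData.lab (orbData.rep 2) = 2 := by decide +kernel
theorem ocnt3 : countBelow (fun j => Nat.beq (orbData.lab j) 3) 1045 = 168 := l3n0
theorem orep3 : orbData.lab (orbData.rep 3) = 3 := by decide +kernel
theorem ocnt4 : countBelow (fun j => Nat.beq (orbData.lab j) 4) 1045 = 168 := l4n0
theorem orep4 : orbData.lab (orbData.rep 4) = 4 := by decide +kernel
theorem ocnt5 : countBelow (fun j => Nat.beq (orbData.lab j) 5) 1045 = 56 := l5n0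
theorem orep5 : orbData.lab (orbData.rep 5) = 5 := by decide +kernel
theorem ocnt6 : countBelow (fun j => Nat.beq (orbData.lab j) 6) 1045 = 8 := l6n0
theorem orep6 : orbData.lab (orbData.rep 6) = 6 := by decide +kernel
theorem ocnt7 : countBelow (fun j => Nat.beq (orbData.lab j) 7) 1045 = 56 := l7n0
theorem orep7 : orbData.lab (orbData.rep 7) = 7 := by decide +kernel
theorem ocnt8 : countBelow (fun j => Nat.beq (orbData.lab j) 8) 1045 = 168 := l8n0
theorem orep8 : orbData.lab (orbData.rep 8) = 8 := by decide +kernel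
theorem ocnt9 : countBelow (fun j => Nat.beq (orbData.lab j) 9) 1045 = 28 := l9n0
theorem orep9 : orbData.lab (orbData.rep 9) = 9 := by decide +kernel
theorem ocnt10 : countBelow (fun j => Nat.beq (orbData.lab j) 10) 1045 = 56 := l10n0
theorem orep10 : orbData.lab (orbData.rep 10) = 10 := by decide +kernel
end Cfsg.Agent.Lib.Helper35.J1P1045
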